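import Cfsg.Agent.H43.D1.Count
import Mathlib.RingTheory.RootsOfUnity.AlgebraicallyClosed

/-!
# Extensions of an invariant simple module along a cyclic quotient
-/

set_option autoImplicit false
set_option linter.unusedSectionVars false

namespace Cfsg.Agent.H20.Cyclic

open Module
open Cfsg.Agent.H43.D1 (IsIrred span_range_eq_top)

variable {k : Type*} [Field k] {G : Type*} [Group G] [Finite G] {V : Type*} [AddCommGroup V]
  [Module k V] {C T : Subgroup G}

/-- Operators commuting with an irreducible representation are scalars. -/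
theorem exists_scalar [IsAlgClosed k] [FiniteDimensional k V] {H : Type*} [Group H]
    {ρ : H →* Module.End k V} (hρ : IsIrred ρ) {S : Module.End k V}
    (hS : ∀ h, S * ρ h = ρ h * S) : ∃ c : k, S = c • 1 := by
  have := hρ.1
  have hc : S ∈ Subalgebra.center k (Module.End k V) := by
    rw [Subalgebra.mem_center_iff]
    intro R
    have hR : R ∈ Submodule.span k (Set.range ρ) := by rw [span_range_eq_top hρ]; trivial
    induction hR using Submodule.span_induction with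
    | mem x hx => obtain ⟨h, rfl⟩ := hx; exact (hS h).symm
    | zero => rw [zero_mul, mul_zero]
    | add x y _ _ hx hy => rw [add_mul, mul_add, hx, hy]
    | smul r x _ hx => rw [smul_mul_assoc, mul_smul_comm, hx]
  rw [Algebra.IsCentral.center_eq_bot k (Module.End k V), Algebra.mem_bot] at hc
  obtain ⟨c, hc⟩ := hc
  exact ⟨c, by rw [← hc, Algebra.algebraMap_eq_smul_one]⟩

variable (hCT : C ≤ T) (hTn : T ≤ Subgroup.normalizer (C : Set G)) {t₀ : G} (ht₀ : t₀ ∈ T)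
  (hgen : ∀ t ∈ T, ∃ i : ℕ, t * (t₀ ^ i)⁻¹ ∈ C)

include hCT hTn ht₀ hgen in
/-- The order of the generator modulo `C` is the index. -/
theorem pow_mem_iff (m : ℕ) : t₀ ^ m ∈ C ↔ C.relIndex T ∣ m := by
  have hn : (C.subgroupOf T).Normal := Subgroup.normal_subgroupOf_of_le_normalizer hTn
  set q : T ⧸ C.subgroupOf T := ((⟨t₀, ht₀⟩ : T) : T ⧸ C.subgroupOf T) with hq
  have hord : orderOf q = C.relIndex T := by
    rw [Subgroup.relIndex, Subgroup.index_eq_card]
    refine orderOf_eq_card_of_forall_mem_zpowers fun x => ?_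
    obtain ⟨t, rfl⟩ := QuotientGroup.mk_surjective x
    obtain ⟨i, hi⟩ := hgen t t.2
    refine Subgroup.mem_zpowers_iff.2 ⟨i, ?_⟩
    rw [zpow_natCast, hq, ← QuotientGroup.mk_pow]
    refine QuotientGroup.eq.2 (Subgroup.mem_subgroupOf.2 ?_)
    have hconj := (Subgroup.mem_normalizer_iff.1 (hTn (inv_mem (pow_mem ht₀ i))) _).1 hi
    simpa [mul_assoc] using hconj
  rw [← hord, orderOf_dvd_iff_pow_eq_one, hq, ← QuotientGroup.mk_pow, QuotientGroup.eq_one_iff,
    Subgroup.mem_subgroupOf]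
  rfl

variable (ρ : C →* Module.End k V)

theorem conj_mem (hTn : T ≤ Subgroup.normalizer (C : Set G)) {t : G} (ht : t ∈ T) (c : C) :
    t * c * t⁻¹ ∈ C :=
  (Subgroup.mem_normalizer_iff.1 (hTn ht) c).1 c.2

include hCT hTn ht₀ hgen in
/-- An extension from an intertwiner with the right power. -/
theorem exists_extension (θ : Module.End k V)
    (hθ : ∀ c : C, θ * ρ c = ρ ⟨t₀ * c * t₀⁻¹, conj_mem hTn ht₀ c⟩ * θ)
    (hθe : ∀ h : t₀ ^ C.relIndex T ∈ C, θ ^ C.relIndex T = ρ ⟨_, h⟩) :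
    ∃ τ : T →* Module.End k V, (∀ c : C, τ ⟨c, hCT c.2⟩ = ρ c) ∧ τ ⟨t₀, ht₀⟩ = θ := by
  set e := C.relIndex T with he
  have hpe : ∀ m, t₀ ^ m ∈ C ↔ e ∣ m := pow_mem_iff hCT hTn ht₀ hgen
  have hmul : ∀ (i : ℕ) (c : C),
      θ ^ i * ρ c = ρ ⟨t₀ ^ i * c * (t₀ ^ i)⁻¹, conj_mem hTn (pow_mem ht₀ i) c⟩ * θ ^ i := by
    intro i
    induction i with
    | zero => intro c; simp
    | succ i ih =>
      intro c
      rw [pow_succ', mul_assoc, ih, ← mul_assoc, hθ, mul_assoc]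
      congr 2
      apply Subtype.ext
      show t₀ * (t₀ ^ i * (c : G) * (t₀ ^ i)⁻¹) * t₀⁻¹ = t₀ ^ (i + 1) * (c : G) * (t₀ ^ (i + 1))⁻¹
      rw [pow_succ']
      group
  have hzero : ∀ (m : ℕ) (h : t₀ ^ m ∈ C), θ ^ m = ρ ⟨t₀ ^ m, h⟩ := by
    intro m h
    obtain ⟨r, rfl⟩ := (hpe m).1 h
    have he' : t₀ ^ e ∈ C := (hpe e).2 dvd_rfl
    rw [pow_mul, hθe he', ← map_pow]
    congr 1
    exact Subtype.ext (by simp [pow_mul])
  have hwd : ∀ (c d : C) (i j : ℕ), (c : G) * t₀ ^ i = d * t₀ ^ j → ρ c * θ ^ i = ρ d * θ ^ j := by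
    suffices h : ∀ (c d : C) (i j : ℕ), i ≤ j → (c : G) * t₀ ^ i = d * t₀ ^ j →
        ρ c * θ ^ i = ρ d * θ ^ j by
      intro c d i j he'
      rcases le_total i j with hij | hij
      · exact h c d i j hij he'
      · exact (h d c j i hij he'.symm).symm
    intro c d i j hij he'
    obtain ⟨m, rfl⟩ := Nat.exists_eq_add_of_le hij
    have hm : t₀ ^ m = (d : G)⁻¹ * c := by
      rw [add_comm, pow_add, ← mul_assoc] at he'
      have := mul_right_cancel he'
      rw [this, inv_mul_cancel_left]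
    have hmC : t₀ ^ m ∈ C := by rw [hm]; exact mul_mem (inv_mem d.2) c.2
    rw [add_comm, pow_add, hzero m hmC, ← mul_assoc, ← map_mul]
    congr 2
    exact Subtype.ext (by simp [hm])
  choose I hI using fun t : T => hgen t t.2
  let F : T → Module.End k V := fun t => ρ ⟨_, hI t⟩ * θ ^ I t
  have hF : ∀ (t : T) (c : C) (i : ℕ), (t : G) = c * t₀ ^ i → F t = ρ c * θ ^ i := fun t c i h =>
    hwd _ c _ i (by simp only [inv_mul_cancel_right]; exact h)
  let τ : T →* Module.End k V :=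
    { toFun := F
      map_one' := by rw [hF 1 1 0 (by simp), map_one, pow_zero, one_mul]
      map_mul' := fun s t => by
        have hs := hI s
        have ht := hI t
        rw [hF (s * t) (⟨_, hs⟩ * ⟨_, conj_mem hTn (pow_mem ht₀ (I s)) ⟨_, ht⟩⟩) (I s + I t) ?_]
        · show _ = ρ ⟨_, hs⟩ * θ ^ I s * (ρ ⟨_, ht⟩ * θ ^ I t)
          rw [mul_assoc (ρ _) (θ ^ I s), ← mul_assoc (θ ^ I s), hmul, map_mul, pow_add,
            mul_assoc (ρ _) (ρ _), mul_assoc (ρ _) (θ ^ I s)]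
        · simp only [Subgroup.coe_mul]
          rw [pow_add]
          group }
  refine ⟨τ, fun c => ?_, ?_⟩
  · show F _ = _
    rw [hF _ c 0 (by simp), pow_zero, mul_one]
  · show F _ = _
    rw [hF _ 1 1 (by simp), map_one, one_mul, pow_one]

include hCT hTn ht₀ hgen in
/-- An invariant simple module has as many extensions as the index. -/
theorem exists_extensions [IsAlgClosed k] [FiniteDimensional k V] (hρ : IsIrred ρ)
    (hne : (C.relIndex T : k) ≠ 0) (θ₀ : Module.End k V) (hθ0 : Function.Bijective θ₀)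
    (hθ : ∀ c : C, θ₀ * ρ c = ρ ⟨t₀ * c * t₀⁻¹, conj_mem hTn ht₀ c⟩ * θ₀) :
    ∃ τ : Fin (C.relIndex T) → (T →* Module.End k V), (∀ j, IsIrred (τ j)) ∧
      (∀ j (c : C), τ j ⟨c, hCT c.2⟩ = ρ c) ∧
      ∀ i j (ψ : V →ₗ[k] V), ψ ≠ 0 → (∀ t v, ψ (τ i t v) = τ j t (ψ v)) → i = j := by
  classical
  set e := C.relIndex T with he
  have := hρ.1
  have he0 : e ≠ 0 := fun h => hne (by rw [h, Nat.cast_zero])
  have hd : t₀ ^ e ∈ C := (pow_mem_iff hCT hTn ht₀ hgen e).2 dvd_rfl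
  have hmul : ∀ (i : ℕ) (c : C), θ₀ ^ i * ρ c =
      ρ ⟨t₀ ^ i * c * (t₀ ^ i)⁻¹, conj_mem hTn (pow_mem ht₀ i) c⟩ * θ₀ ^ i := by
    intro i
    induction i with
    | zero => intro c; simp
    | succ i ih =>
      intro c
      rw [pow_succ', mul_assoc, ih, ← mul_assoc, hθ, mul_assoc]
      congr 2
      apply Subtype.ext
      show t₀ * (t₀ ^ i * (c : G) * (t₀ ^ i)⁻¹) * t₀⁻¹ = t₀ ^ (i + 1) * (c : G) * (t₀ ^ (i + 1))⁻¹
      rw [pow_succ']
      group
  set d : C := ⟨t₀ ^ e, hd⟩ with hddef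
  obtain ⟨a, ha⟩ := exists_scalar hρ (S := ρ d⁻¹ * θ₀ ^ e) fun c => by
    rw [mul_assoc, hmul, ← mul_assoc, ← mul_assoc, ← map_mul, ← map_mul]
    congr 2
    exact Subtype.ext (by simp [hddef, mul_assoc])
  have hθe : θ₀ ^ e = a • ρ d := by
    have h := congrArg (fun S => ρ d * S) ha
    simp only [← mul_assoc, ← map_mul, mul_inv_cancel, map_one, one_mul, mul_smul_comm, mul_one] at h
    exact h
  have ha0 : a ≠ 0 := by
    rintro rfl
    rw [zero_smul] at hθe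
    obtain ⟨v, hv⟩ := exists_ne (0 : V)
    have hb : Function.Injective (θ₀ ^ e) := by
      rw [Module.End.coe_pow]; exact hθ0.1.iterate e
    exact hv (hb (by rw [hθe]; simp))
  obtain ⟨μ, hμ⟩ := IsAlgClosed.exists_pow_nat_eq a⁻¹ (Nat.pos_of_ne_zero he0)
  have hμ0 : μ ≠ 0 := by
    rintro rfl
    rw [zero_pow he0, eq_comm, inv_eq_zero] at hμ
    exact ha0 hμ
  have : NeZero (e : k) := ⟨hne⟩
  obtain ⟨ζ, hζ⟩ := HasEnoughRootsOfUnity.exists_primitiveRoot k e
  have hext : ∀ j : Fin e, ∃ τ : T →* Module.End k V, (∀ c : C, τ ⟨c, hCT c.2⟩ = ρ c) ∧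
      τ ⟨t₀, ht₀⟩ = (ζ ^ (j : ℕ) * μ) • θ₀ := fun j =>
    exists_extension hCT hTn ht₀ hgen ρ ((ζ ^ (j : ℕ) * μ) • θ₀)
      (fun c => by rw [smul_mul_assoc, mul_smul_comm, hθ]) (fun h => by
        show ((ζ ^ (j : ℕ) * μ) • θ₀) ^ e = ρ d
        rw [smul_pow, hθe, smul_smul, mul_pow, ← pow_mul, mul_comm (j : ℕ), pow_mul,
          hζ.pow_eq_one, one_pow, one_mul, hμ, inv_mul_cancel₀ ha0, one_smul])
  choose τ hτC hτt using hext
  refine ⟨τ, fun j => ⟨hρ.1, fun U hU => hρ.2 U fun c v hv => ?_⟩, hτC, fun i j ψ hψ hψi => ?_⟩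
  · have h := hU ⟨c, hCT c.2⟩ v hv
    rwa [hτC] at h
  obtain ⟨b, hb⟩ := exists_scalar hρ (S := ψ) fun c => LinearMap.ext fun v => by
    have h := hψi ⟨c, hCT c.2⟩ v
    rwa [hτC, hτC] at h
  have hb0 : b ≠ 0 := fun h => hψ (by rw [hb, h, zero_smul])
  obtain ⟨v, hv⟩ := exists_ne (0 : V)
  have h := hψi ⟨t₀, ht₀⟩ v
  simp only [hτt, hb, LinearMap.smul_apply, Module.End.one_apply, map_smul, smul_smul] at h
  have h2 : θ₀ v ≠ 0 := fun h0 => hv (hθ0.1 (by rw [h0, map_zero]))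
  have h3 := smul_left_injective k h2 h
  have h4 : ζ ^ (i : ℕ) = ζ ^ (j : ℕ) := by
    apply mul_right_cancel₀ (mul_ne_zero hμ0 hb0)
    linear_combination h3
  exact Fin.ext (hζ.pow_inj i.2 j.2 h4)

end Cfsg.Agent.H20.Cyclic
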