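import Cfsg.Agent.H20.Cyclic.Local.Lift
import Cfsg.Agent.H20.Cyclic.Brauer
import Cfsg.Agent.H40.StarIntComb
import Cfsg.Agent.H26.CharOrtho

/-!
# The centre of the local block of a cyclic maximal pair
-/

set_option autoImplicit false
set_option linter.unusedSectionVars false
set_option maxHeartbeats 1000000
set_option synthInstance.maxHeartbeats 400000

namespace Cfsg.Agent.H20.Cyclic

open Cfsg.Agent.H22
open Cfsg.Agent.H41 (ResField)

variable {k : Type*} [Field k] {G : Type*} [Group G] [Finite G] {p : ℕ} [Fact p.Prime] [CharP k p]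
  {P Z : Subgroup G} {b e f : MonoidAlgebra k G}

/-- The local block is a trace from the defect group. -/
theorem exists_c0 (hS : Split k G) (h : Sub1 p b P e Z f) :
    ∃ c₀, Inv P c₀ ∧ trUp P (Subgroup.centralizer (Z : Set G)) c₀ = f ∧ f * c₀ = c₀ := by
  set C := Subgroup.centralizer (Z : Set G)
  set CP := Subgroup.centralizer (P : Set G)
  have heC : IsBlockEl CP e := by
    have h1 := h.maxEl.pair.block
    rwa [show cen C P = CP from inf_eq_left.2 h.centralizer_le] at h1
  obtain ⟨z, d, hz, hfz, hze, hd, hdz⟩ := exists_lift hS h heC.cent heC.idem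
  obtain ⟨c, hc⟩ := hS.local_prop C f z h.blockEl hz
  have hzf : z * f = z := by rw [← h.blockEl.cent.comm hz.supp, hfz]
  rw [hzf] at hc
  have hPp : IsPGroup p P := h.maxEl.pair.pGroup
  have hPC := h.le_centralizer
  have hfP : Inv P f := h.blockEl.cent.inv.mono hPC
  have hzP : Inv P z := hz.inv.mono hPC
  have hc0 : c ≠ 0 := by
    rintro rfl
    rw [zero_smul, sub_zero] at hc
    have h1 := isNilpotent_cut hPp hzP hc
    have hcomm : Commute (cut CP z) e := (heC.cent.comm (supp_cut CP z)).symm
    have h2 := hcomm.isNilpotent_mul_right h1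
    rw [hze] at h2
    exact heC.ne_zero (isIdempotentElem_eq_zero_of_isNilpotent heC.idem h2)
  set n := c⁻¹ • (z - c • f) with hn
  obtain ⟨m, hm⟩ : IsNilpotent n := hc.smul c⁻¹
  have hnc : IsCent C n := (hz.sub (h.blockEl.cent.smul c)).smul _
  have hzn : z = c • (f + n) := by
    rw [hn, smul_add, smul_smul, mul_inv_cancel₀ hc0, one_smul, add_sub_cancel]
  set w := c⁻¹ • ((∑ i ∈ Finset.range m, (-n) ^ i) * f) with hw
  have hwc : IsCent C w :=
    ((IsCent.sum _ fun i _ => isCent_pow (by
      simpa using (isCent_zero C).sub hnc) i).mul h.blockEl.cent).smul _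
  have hfn : f * n = n := by
    rw [hn, mul_smul_comm, mul_sub, hfz, mul_smul_comm, h.blockEl.idem]
  have hzw : z * w = f := by
    rw [hzn, hw, smul_mul_assoc, mul_smul_comm, smul_smul, mul_inv_cancel₀ hc0, one_smul]
    have h1 : (1 + n) * ∑ i ∈ Finset.range m, (-n) ^ i = 1 := by
      have := mul_neg_geom_sum (-n) m
      rw [neg_pow, hm, mul_zero, sub_zero, sub_neg_eq_add] at this
      exact this
    calc (f + n) * ((∑ i ∈ Finset.range m, (-n) ^ i) * f)
        = f * ((1 + n) * ∑ i ∈ Finset.range m, (-n) ^ i) * f := by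
          rw [← mul_assoc, ← mul_assoc, mul_add, mul_one, hfn]
      _ = f := by rw [h1, mul_one, h.blockEl.idem]
  refine ⟨f * (d * w), hfP.mul (hd.mul (hwc.inv.mono hPC)), ?_, ?_⟩
  · rw [trUp_mul_left P _ h.blockEl.cent.inv, trUp_mul_right P d hwc.inv, hdz, hzw, h.blockEl.idem]
  · rw [← mul_assoc, h.blockEl.idem]

universe u

variable {G : Type u} [Group G] [Finite G] {M : Ideal Cfsg.AlgInt} [M.IsMaximal]
  [CharP (ResField M) p] {P Z : Subgroup G} {b e f : MonoidAlgebra (ResField M) G}

/-- The local block has as many characters as the defect group has elements. -/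
theorem exists_block (hM : Cfsg.IsPModular p M) (h : Sub1 p b P e Z f) (hcyc : IsCyclic P) :
    ∃ bs : Set (Cfsg.IrrCharacter (Subgroup.centralizer (Z : Set G))),
      Cfsg.IsPBlock M bs ∧ el M (Subgroup.centralizer (Z : Set G)) bs = f ∧
        Nat.card bs = Nat.card P ∧ Cfsg.blockRank p bs = 1 := by
  classical
  set C := Subgroup.centralizer (Z : Set G)
  have hS := split M G
  have := Fintype.ofFinite C
  obtain ⟨bs, hbs, hbse⟩ := exists_el_eq h.blockEl
  have hnil : Cfsg.IsNilpotentBlock p M bs := isNilpotentBlock_sub hbs (hbse.symm ▸ h.nil)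
  have hPD : Cfsg.IsDefectGroup p M bs (P.subgroupOf C) :=
    (isDefectGroup_subgroupOf_iff hM hbs h.le_centralizer).2
      (hbse.symm ▸ h.maxEl.isDefEl hS h.blockEl)
  obtain ⟨e', hm⟩ := H40.NilpotentBlocks.exists_isMaxEl_of_defect hM hbs hPD
  have : Fintype (P.subgroupOf C) := Fintype.ofFinite _
  obtain ⟨χ, hχ, h0, -⟩ := H42.exists_height_zero (p := p) hbs
  obtain ⟨Φ, hreg, -⟩ := H40.NilpotentBlocks.exists_equiv hnil hm
    (H40.NilpotentBlocks.starInt hM hbs hm) hM hPD hχ h0
  refine ⟨bs, hbs, hbse, ?_, ?_⟩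
  · rw [Nat.card_congr Φ, H26.card_irr_eq_card_conjClasses,
      ← Nat.card_congr (Subgroup.subgroupOfEquivOfLe h.le_centralizer).toEquiv]
    have : IsCyclic (P.subgroupOf C) :=
      isCyclic_of_surjective (Subgroup.subgroupOfEquivOfLe h.le_centralizer).symm.toMonoidHom
        (Subgroup.subgroupOfEquivOfLe h.le_centralizer).symm.surjective
    let _ : CommGroup (P.subgroupOf C) := IsCyclic.commGroup
    exact (Nat.card_congr (Equiv.ofBijective _ ConjClasses.mk_bijective)).symm
  · have hspan : Submodule.span ℂ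
        ((fun χ : Cfsg.IrrCharacter C => Cfsg.pRegularPart p (χ : C → ℂ)) '' bs) =
        Submodule.span ℂ {Cfsg.pRegularPart p (χ : C → ℂ)} := by
      refine le_antisymm (Submodule.span_le.2 ?_)
        (Submodule.span_le.2 (Set.singleton_subset_iff.2 (Submodule.subset_span ⟨χ, hχ, rfl⟩)))
      rintro _ ⟨ψ, hψ, rfl⟩
      refine Submodule.mem_span_singleton.2
        ⟨(Cfsg.charDegree ((Φ ⟨ψ, hψ⟩ : Cfsg.IrrCharacter (P.subgroupOf C)) : P.subgroupOf C → ℂ) : ℂ), ?_⟩
      funext x
      rw [Pi.smul_apply, smul_eq_mul]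
      by_cases hx : p ∣ orderOf x
      · simp [Cfsg.pRegularPart, Cfsg.IsPRegular, hx]
      · simp only [Cfsg.pRegularPart, Cfsg.IsPRegular, hx, not_false_eq_true, if_true]
        exact (hreg ⟨ψ, hψ⟩ x hx).symm
    rw [Cfsg.blockRank, hspan, finrank_span_singleton]
    intro h1
    have h2 := congrFun h1 1
    rw [Cfsg.pRegularPart, if_pos (by
      rw [Cfsg.IsPRegular, orderOf_one]
      exact (Fact.out : p.Prime).not_dvd_one)] at h2
    exact H26.irr_one_ne_zero χ h2

open scoped Polynomial in
theorem X_sub_one_pow {k : Type*} [Field k] [CharP k p] (n : ℕ) :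
    (Polynomial.X - 1 : k[X]) ^ (p ^ n - 1) = ∑ i ∈ Finset.range (p ^ n), Polynomial.X ^ i := by
  have hne : (Polynomial.X - 1 : k[X]) ≠ 0 := by
    rw [← map_one Polynomial.C]
    exact Polynomial.X_sub_C_ne_zero 1
  refine mul_right_cancel₀ hne ?_
  rw [geom_sum_mul, ← pow_succ, Nat.sub_add_cancel (Nat.one_le_pow _ _ (Fact.out : p.Prime).pos)]
  rw [sub_pow_char_pow, one_pow]

/-- The generator of the centre of the local block. -/
theorem exists_centre (hM : Cfsg.IsPModular p M) (h : Sub1 p b P e Z f) (hcyc : IsCyclic P) :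
    ∃ π, IsCent (Subgroup.centralizer (Z : Set G)) π ∧ f * π = π ∧ 1 < Nat.card P ∧
      π ^ Nat.card P = 0 ∧ π ^ (Nat.card P - 1) ≠ 0 ∧
      ∀ a, IsCent (Subgroup.centralizer (Z : Set G)) a → f * a = a →
        ∃ c : ℕ → ResField M, a = ∑ l ∈ Finset.range (Nat.card P), c l • (π ^ l * f) := by
  classical
  set C := Subgroup.centralizer (Z : Set G)
  set CP := Subgroup.centralizer (P : Set G)
  set q := Nat.card P with hq
  have hS := split M G
  have hPp : IsPGroup p P := h.maxEl.pair.pGroup
  have hPC := h.le_centralizer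
  have hq1 : 1 < q := by
    have h1 := Subgroup.card_le_of_le h.le
    rw [h.card_eq] at h1
    exact lt_of_lt_of_le (Fact.out : p.Prime).one_lt h1
  obtain ⟨n, hn⟩ := IsPGroup.iff_card.1 hPp
  have heC : IsBlockEl CP e := by
    have h1 := h.maxEl.pair.block
    rwa [show cen C P = CP from inf_eq_left.2 h.centralizer_le] at h1
  obtain ⟨⟨x, hxP⟩, hx⟩ := hcyc.exists_generator
  have hord : orderOf x = q := by
    rw [← Subgroup.orderOf_mk x hxP, orderOf_eq_card_of_forall_mem_zpowers hx]
  have hxCP : x ∈ CP := Subgroup.mem_centralizer_iff.2 fun y hy => by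
    let _ := hcyc.commGroup
    exact congrArg Subtype.val (mul_comm (⟨y, hy⟩ : P) ⟨x, hxP⟩)
  set u : MonoidAlgebra (ResField M) G := MonoidAlgebra.single x 1 - 1 with hu
  have huc : IsCent CP u := by
    refine IsCent.sub ⟨?_, fun g hg => ?_⟩ (isCent_one _)
    · exact supp_single hxCP
    · apply H40.ext_coeff
      intro y
      rw [coeff_cj, MonoidAlgebra.coeff_single, Finsupp.single_apply, Finsupp.single_apply]
      have hgx : x * g = g * x := Subgroup.mem_centralizer_iff.1 hg x hxP
      refine if_congr ⟨fun h1 => ?_, fun h1 => ?_⟩ rfl rfl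
      · calc x = g * x * g⁻¹ := by rw [← hgx, mul_inv_cancel_right]
          _ = y := by rw [h1]; group
      · rw [← h1, mul_assoc, hgx, inv_mul_cancel_left]
  obtain ⟨π, d, hπ, hfπ, hπe, -, -⟩ := exists_lift hS h (huc.mul heC.cent) (by
    rw [← mul_assoc, heC.cent.comm huc.supp, mul_assoc, heC.idem])
  -- powers at the pair
  have hπP : Inv P π := hπ.inv.mono hPC
  have hfP : Inv P f := h.blockEl.cent.inv.mono hPC
  have hfe : cut CP f * e = e := h.maxEl.below
  have hpow : ∀ i, cut CP (π ^ i * f) * e = u ^ i * e := by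
    intro i
    rw [cut_mul hPp ((isCent_pow hπ i).inv.mono hPC) hfP, mul_assoc, hfe]
    induction i with
    | zero => rw [pow_zero, pow_zero, cut_one]
    | succ i ih =>
      rw [pow_succ, cut_mul hPp ((isCent_pow hπ i).inv.mono hPC) hπP, mul_assoc, hπe, ← mul_assoc,
        pow_succ]
      calc cut CP (π ^ i) * u * e = cut CP (π ^ i) * (e * u) := by
            rw [mul_assoc, heC.cent.comm huc.supp]
        _ = cut CP (π ^ i) * e * u := (mul_assoc _ _ _).symm
        _ = u ^ i * e * u := by rw [ih]
        _ = u ^ i * u * e := by rw [mul_assoc, heC.cent.comm huc.supp, mul_assoc]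
  -- the socle
  have hsum : u ^ (q - 1) =
      ∑ i ∈ Finset.range q, MonoidAlgebra.single (x ^ i) (1 : ResField M) := by
    have h1 := congrArg (Polynomial.aeval (R := ResField M)
      (MonoidAlgebra.single x (1 : ResField M))) (X_sub_one_pow (p := p) (k := ResField M) n)
    rw [map_pow, map_sub, map_one, Polynomial.aeval_X, map_sum, ← hn, ← hq, ← hu] at h1
    simp only [map_pow, Polynomial.aeval_X, MonoidAlgebra.single_pow, one_pow] at h1
    exact h1
  have hsoc : u ^ (q - 1) * e ≠ 0 := by
    intro h0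
    rw [hsum, Finset.sum_mul] at h0
    obtain ⟨s, hs⟩ : ∃ s, e.coeff s ≠ 0 := by
      by_contra hall
      push Not at hall
      exact heC.ne_zero (H40.ext_coeff fun s => by rw [hall s]; rfl)
    obtain ⟨B', hB', hB'e⟩ := exists_el_eq heC
    have hreg : ∀ y ∈ CP, e.coeff y ≠ 0 → ¬ p ∣ orderOf y := by
      intro y hy hy0 hd
      refine hy0 ?_
      rw [← hB'e, coeff_el, Cfsg.subgroupBlockCoeff, dif_pos hy,
        H40.blockCoeff_eq_zero_of_singular hM hB' (by rwa [← Subgroup.orderOf_coe]), resT_zero]
    have h2 := congrArg (fun a => MonoidAlgebra.coeff a s) h0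
    simp only [MonoidAlgebra.coeff_sum, Finset.sum_apply'] at h2
    rw [Finset.sum_eq_single 0] at h2
    · exact hs (by simpa [MonoidAlgebra.one_def] using h2)
    · intro i hi hi0
      have hc : (MonoidAlgebra.single (x ^ i) (1 : ResField M) * e).coeff s =
          e.coeff ((x ^ i)⁻¹ * s) := by
        conv_lhs => rw [← mul_inv_cancel_left (x ^ i) s]
        rw [MonoidAlgebra.coeff_single_mul_mul, one_mul]
      rw [hc]
      by_contra hne
      have hsC := heC.cent.supp s hs
      have hxi : x ^ i ≠ 1 := pow_ne_one_of_lt_orderOf hi0 (hord ▸ Finset.mem_range.1 hi)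
      have hcomm : Commute (x ^ i) s :=
        ((show Commute x s from Subgroup.mem_centralizer_iff.1 hsC x hxP)).pow_left i
      obtain ⟨j, hj⟩ := IsPGroup.iff_orderOf.1 hPp ⟨x ^ i, pow_mem hxP i⟩
      rw [Subgroup.orderOf_mk] at hj
      have h3 := hreg _ (heC.cent.supp _ hne) hne
      apply h3
      have hcop : Nat.Coprime (orderOf (x ^ i)⁻¹) (orderOf s) := by
        rw [orderOf_inv, hj]
        exact coprime_pow_of_not_dvd (hreg s hsC hs) j
      rw [hcomm.inv_left.orderOf_mul_eq_mul_orderOf_of_coprime hcop, orderOf_inv, hj]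
      have hj0 : j ≠ 0 := by
        rintro rfl
        exact hxi (orderOf_eq_one_iff.1 (by simpa using hj))
      exact dvd_mul_of_dvd_left (dvd_pow_self p hj0) _
    · exact fun h3 => absurd (Finset.mem_range.2 (by omega)) h3
  have huq : u ^ q = 0 := by
    have hgeo := geom_sum_mul (MonoidAlgebra.single x (1 : ResField M)) q
    simp only [MonoidAlgebra.single_pow, one_pow] at hgeo
    rw [show q = q - 1 + 1 by omega, pow_succ, hsum]
    show (∑ i ∈ Finset.range q, MonoidAlgebra.single (x ^ i) (1 : ResField M)) * u = 0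
    rw [hu, hgeo, ← hord, pow_orderOf_eq_one, ← MonoidAlgebra.one_def, sub_self]
  have huind : ∀ c : ℕ → ResField M, ∑ l ∈ Finset.range q, c l • (u ^ l * e) = 0 →
      ∀ l < q, c l = 0 := by
    intro c hc l
    induction l using Nat.strong_induction_on with
    | _ l ih =>
    intro hl
    have h1 := congrArg (fun a => u ^ (q - 1 - l) * a) hc
    simp only [Finset.mul_sum, mul_zero, mul_smul_comm, ← mul_assoc, ← pow_add] at h1
    rw [Finset.sum_eq_single l] at h1
    · rw [show q - 1 - l + l = q - 1 by omega, smul_eq_zero] at h1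
      exact h1.resolve_right hsoc
    · intro j hj hjl
      rcases lt_or_gt_of_ne hjl with hjl | hjl
      · rw [ih j hjl (Finset.mem_range.1 hj), zero_smul]
      · rw [pow_eq_zero_of_le (show q ≤ q - 1 - l + j by omega) huq, zero_mul, smul_zero]
    · exact fun h2 => absurd (Finset.mem_range.2 hl) h2
  -- at most `q` independent central elements
  obtain ⟨bs, hbs, hbse, hcard, -⟩ := exists_block hM h hcyc
  have := Fintype.ofFinite C
  have hemb : emb C.subtype (elTop M bs) = f := by
    rw [emb_elTop C.subtype_injective]; exact hbse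
  have hbound : ∀ {ι : Type} [Fintype ι] (z : ι → MonoidAlgebra (ResField M) G),
      (∀ i, IsCent C (z i)) → (∀ i, f * z i = z i) → LinearIndependent (ResField M) z →
      Fintype.card ι ≤ q := by
    intro ι _ z hz hzf hind
    choose z'' hz' using fun i => exists_emb_eq C.subtype_injective (a := z i)
      (by rw [C.range_subtype]; exact hz i)
    let z' : ι → MonoidAlgebra (ResField M) C := fun i => (z'' i : MonoidAlgebra (ResField M) C)
    refine le_of_le_of_eq ?_ hcard
    refine card_le_card_block hbs z' (fun i => ?_) (fun i => ?_) ?_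
    · refine ⟨fun y _ => Subgroup.mem_top y, fun g _ => emb_injective C.subtype_injective ?_⟩
      rw [← cj_emb C.subtype_injective, hz']
      exact (hz i).inv _ g.2
    · apply emb_injective C.subtype_injective
      rw [map_mul, hemb, hz', hzf]
    · exact LinearIndependent.of_comp (emb C.subtype).toLinearMap
        (by rw [show (emb C.subtype).toLinearMap ∘ z' = z from funext hz']; exact hind)
  set v : Fin q → MonoidAlgebra (ResField M) G := fun l => π ^ (l : ℕ) * f with hv
  have hvc : ∀ l, IsCent C (v l) := fun l => (isCent_pow hπ _).mul h.blockEl.cent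
  have hvf : ∀ l, f * v l = v l := fun l => by
    simp only [hv]
    rw [← mul_assoc, h.blockEl.cent.comm (isCent_pow hπ _).supp, mul_assoc, h.blockEl.idem]
  have hvind : LinearIndependent (ResField M) v := by
    rw [Fintype.linearIndependent_iff]
    intro c hc l
    let c' : ℕ → ResField M := fun j => if hj : j < q then c ⟨j, hj⟩ else 0
    have h1 := congrArg (fun a => cut CP a * e) hc
    simp only [map_sum, map_smul, map_zero, Finset.sum_mul, smul_mul_assoc, zero_mul, hv,
      hpow] at h1
    rw [show ∑ j : Fin q, c j • (u ^ (j : ℕ) * e) =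
      ∑ j ∈ Finset.range q, c' j • (u ^ j * e) by
        rw [← Fin.sum_univ_eq_sum_range]
        exact Finset.sum_congr rfl fun j _ => by simp [c', j.2]] at h1
    have h2 := huind c' h1 l l.2
    simpa [c', l.2] using h2
  have hspan : ∀ a, IsCent C a → f * a = a →
      ∃ c : ℕ → ResField M, a = ∑ l ∈ Finset.range q, c l • (π ^ l * f) := by
    intro a ha haf
    have hmem : a ∈ Submodule.span (ResField M) (Set.range v) := by
      by_contra hmem
      have h1 := hbound (fun o : Option (Fin q) => o.elim a v)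
        (fun o => by cases o with | none => exact ha | some l => exact hvc l)
        (fun o => by cases o with | none => exact haf | some l => exact hvf l)
        (linearIndependent_option.2 ⟨hvind, hmem⟩)
      simp at h1
    obtain ⟨c, hc⟩ := (Submodule.mem_span_range_iff_exists_fun (ResField M)).1 hmem
    refine ⟨fun j => if hj : j < q then c ⟨j, hj⟩ else 0, ?_⟩
    rw [← hc, ← Fin.sum_univ_eq_sum_range]
    exact Finset.sum_congr rfl fun j _ => by simp [hv, j.2]
  have hπq : π ^ q = 0 := by
    have hqq : f * π ^ q = π ^ q := by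
      rw [show q = q - 1 + 1 by omega, pow_succ', ← mul_assoc, hfπ]
    obtain ⟨c, hc⟩ := hspan (π ^ q) (isCent_pow hπ q) hqq
    have h1 := congrArg (fun a => cut CP a * e) (show π ^ q * f = π ^ q by
      rw [← h.blockEl.cent.comm (isCent_pow hπ q).supp, hqq])
    simp only [hpow, huq, zero_mul] at h1
    rw [hc] at h1
    simp only [map_sum, map_smul, Finset.sum_mul, smul_mul_assoc, hpow] at h1
    rw [hc]
    exact Finset.sum_eq_zero fun l hl => by rw [huind c h1.symm l (Finset.mem_range.1 hl), zero_smul]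
  refine ⟨π, hπ, hfπ, hq1, hπq, fun h0 => hsoc ?_, hspan⟩
  rw [← hpow, h0, zero_mul, map_zero, zero_mul]

end Cfsg.Agent.H20.Cyclic
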