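import Cfsg.Agent.H20.Cyclic.Local.Setup
import Cfsg.Agent.H22.SubpairPoint

/-!
# Lifting central elements at a defect group to traces
-/

set_option autoImplicit false
set_option linter.unusedSectionVars false

namespace Cfsg.Agent.H20.Cyclic

open Cfsg.Agent.H22
open Cfsg.Agent.H23 (IsSylowIn exists_isSylowIn_ge)

variable {k : Type*} [Field k] {G : Type*} [Group G] [Finite G] {p : ℕ} [Fact p.Prime] [CharP k p]

/-- An invariant element supported on classes with defect groups inside `V` is a trace from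
`V`. -/
theorem exists_trUp_of_defect {V U : Subgroup G} (hV : V ≤ U) {a : MonoidAlgebra k G}
    (ha : Inv U a)
    (hsupp : ∀ x, a.coeff x ≠ 0 → ∀ R : Subgroup G, IsPGroup p R →
      R ≤ Subgroup.centralizer ({x} : Set G) ⊓ U → ∃ u ∈ U, cS u R ≤ V) :
    ∃ d, Inv V d ∧ trUp V U d = a := by
  classical
  let st : Setoid G :=
    { r := fun x y => ∃ u ∈ U, u * x * u⁻¹ = y
      iseqv := ⟨fun x => ⟨1, one_mem U, by simp⟩,
        fun {x y} ⟨u, hu, h⟩ => ⟨u⁻¹, inv_mem hu, by rw [← h]; group⟩,
        fun {x y z} ⟨u, hu, h⟩ ⟨v, hv, h'⟩ => ⟨v * u, mul_mem hv hu, by rw [← h', ← h]; group⟩⟩ }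
  let idx : G → ℕ := fun x => V.relIndex (Subgroup.centralizer ({x} : Set G) ⊓ U)
  let pick : Quotient st → G := fun q =>
    if h : ∃ y, Quotient.mk st y = q ∧ ¬ p ∣ idx y then h.choose else q.out
  let r : G → G := fun x => pick (Quotient.mk st x)
  have hpick : ∀ q, Quotient.mk st (pick q) = q := by
    intro q
    simp only [pick]
    split_ifs with h
    · exact h.choose_spec.1
    · exact Quotient.out_eq q
  have hr : ∀ u ∈ U, ∀ x, r (u * x * u⁻¹) = r x := fun u hu x =>
    congrArg pick (Quotient.sound (s := st) (⟨u⁻¹, inv_mem hu, by group⟩ :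
      st.r (u * x * u⁻¹) x))
  have hidx : ∀ x, a.coeff x ≠ 0 → (idx (r x) : k) ≠ 0 := by
    intro x hx
    suffices h : ∃ y, Quotient.mk st y = Quotient.mk st x ∧ ¬ p ∣ idx y by
      have h2 : ¬ p ∣ idx (r x) := by
        simp only [r, pick, dif_pos h]
        exact h.choose_spec.2
      rwa [Ne, CharP.cast_eq_zero_iff k p]
    obtain ⟨R, hR, -⟩ := exists_isSylowIn_ge (p := p)
      (bot_le : (⊥ : Subgroup G) ≤ Subgroup.centralizer ({x} : Set G) ⊓ U) IsPGroup.of_bot
    obtain ⟨u, hu, huR⟩ := hsupp x hx R hR.2.1 hR.1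
    refine ⟨u * x * u⁻¹, Quotient.sound (s := st) ⟨u⁻¹, inv_mem hu, by group⟩, fun hd => ?_⟩
    have heq : cS u (Subgroup.centralizer ({x} : Set G) ⊓ U) =
        Subgroup.centralizer ({u * x * u⁻¹} : Set G) ⊓ U := by
      rw [cS_inf, cS_centralizer_singleton, cS_eq_self (Subgroup.le_normalizer hu)]
    have h1 : (cS u R).relIndex (cS u (Subgroup.centralizer ({x} : Set G) ⊓ U)) =
        R.relIndex (Subgroup.centralizer ({x} : Set G) ⊓ U) :=
      Subgroup.relIndex_map_map_of_injective _ _ (MulAut.conj u).injective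
    rw [heq] at h1
    have h2 := Subgroup.relIndex_dvd_of_le_left
      (Subgroup.centralizer ({u * x * u⁻¹} : Set G) ⊓ U) huR
    rw [h1] at h2
    exact hR.2.2 (hd.trans h2)
  refine ⟨H40.ofFun fun x => if ∃ v ∈ V, v * r x * v⁻¹ = x then
    a.coeff x / (idx (r x) : k) else 0, ?_, ?_⟩
  · intro g hg
    apply H40.ext_coeff
    intro x
    rw [coeff_cj, H40.coeff_ofFun, H40.coeff_ofFun]
    have hgx : r (g⁻¹ * x * g) = r x := by
      simpa using hr g⁻¹ (inv_mem (hV hg)) x
    have hax : a.coeff (g⁻¹ * x * g) = a.coeff x := by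
      simpa using ha.coeff (inv_mem (hV hg)) x
    rw [hgx, hax]
    refine if_congr ⟨fun ⟨v, hv, h⟩ => ⟨g * v, mul_mem hg hv, ?_⟩,
      fun ⟨v, hv, h⟩ => ⟨g⁻¹ * v, mul_mem (inv_mem hg) hv, ?_⟩⟩ rfl rfl
    · calc g * v * r x * (g * v)⁻¹ = g * (v * r x * v⁻¹) * g⁻¹ := by group
        _ = x := by rw [h]; group
    · calc g⁻¹ * v * r x * (g⁻¹ * v)⁻¹ = g⁻¹ * (v * r x * v⁻¹) * g := by group
        _ = g⁻¹ * x * g := by rw [h]
  · apply H40.ext_coeff
    intro x
    let _ : Fintype (U ⧸ V.subgroupOf U) := Fintype.ofFinite _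
    rw [trUp, MonoidAlgebra.coeff_sum, Finset.sum_apply']
    simp only [coeff_cj, H40.coeff_ofFun]
    have hax : ∀ q : U ⧸ V.subgroupOf U,
        a.coeff ((q.out : G)⁻¹ * x * (q.out : G)) = a.coeff x := fun q => by
      simpa using ha.coeff (inv_mem q.out.2) x
    have hrq : ∀ q : U ⧸ V.subgroupOf U, r ((q.out : G)⁻¹ * x * (q.out : G)) = r x := fun q => by
      simpa using hr _ (inv_mem q.out.2) x
    simp only [hax, hrq]
    by_cases h0 : a.coeff x = 0
    · simp [h0]
    obtain ⟨w, hw, hwx⟩ : ∃ w ∈ U, w * r x * w⁻¹ = x :=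
      Quotient.exact (s := st) (hpick (Quotient.mk st x))
    set K : Subgroup G := Subgroup.centralizer ({r x} : Set G) ⊓ U with hK
    let ψ : K ⧸ V.subgroupOf K → U ⧸ V.subgroupOf U := fun c =>
      ((⟨w, hw⟩ * Subgroup.inclusion inf_le_right c.out : U) : U ⧸ V.subgroupOf U)
    have hψ : Function.Injective ψ := by
      intro c c' hcc
      rw [← QuotientGroup.out_eq' c, ← QuotientGroup.out_eq' c', QuotientGroup.eq]
      simp only [ψ, QuotientGroup.eq, Subgroup.mem_subgroupOf] at hcc ⊢
      simpa [mul_assoc] using hcc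
    have himg : (Finset.univ : Finset (U ⧸ V.subgroupOf U)).filter (fun q =>
        ∃ v ∈ V, v * r x * v⁻¹ = (q.out : G)⁻¹ * x * (q.out : G)) =
        (Set.finite_range ψ).toFinset := by
      ext q
      rw [Finset.mem_filter, Set.Finite.mem_toFinset]
      constructor
      · rintro ⟨-, v, hv, hvx⟩
        have hc : w⁻¹ * (q.out : G) * v ∈ K := by
          refine ⟨Subgroup.mem_centralizer_singleton_iff.2 ?_,
            show w⁻¹ * (q.out : G) * v ∈ U from mul_mem (mul_mem (inv_mem hw) q.out.2) (hV hv)⟩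
          have h1 : (q.out : G) * (v * r x * v⁻¹) * (q.out : G)⁻¹ = w * r x * w⁻¹ := by
            rw [hvx, hwx]
            group
          calc w⁻¹ * (q.out : G) * v * r x
              = w⁻¹ * ((q.out : G) * (v * r x * v⁻¹) * (q.out : G)⁻¹) * ((q.out : G) * v) := by
                group
            _ = _ := by rw [h1]; group
        refine ⟨((⟨_, hc⟩ : K) : K ⧸ V.subgroupOf K), ?_⟩
        conv_rhs => rw [← QuotientGroup.out_eq' q]
        refine QuotientGroup.eq.2 (Subgroup.mem_subgroupOf.2 ?_)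
        obtain ⟨⟨n, hn⟩, hout⟩ := QuotientGroup.mk_out_eq_mul (V.subgroupOf K) (⟨_, hc⟩ : K)
        rw [hout]
        have hn' : (n : G) ∈ V := Subgroup.mem_subgroupOf.1 hn
        have h3 := mul_mem (inv_mem hn') (inv_mem hv)
        simpa [mul_assoc] using h3
      · rintro ⟨c, rfl⟩
        refine ⟨Finset.mem_univ _, ?_⟩
        obtain ⟨⟨n, hn⟩, hout⟩ := QuotientGroup.mk_out_eq_mul (V.subgroupOf U)
          (⟨w, hw⟩ * Subgroup.inclusion inf_le_right c.out : U)
        have hn' : ((n : U) : G) ∈ V := Subgroup.mem_subgroupOf.1 hn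
        refine ⟨((n : U) : G)⁻¹, inv_mem hn', ?_⟩
        have hc := Subgroup.mem_centralizer_singleton_iff.1 c.out.2.1
        simp only [ψ, hout, Subgroup.coe_mul, Subgroup.coe_inclusion]
        calc ((n : U) : G)⁻¹ * r x * ((n : U) : G)⁻¹⁻¹
            = ((n : U) : G)⁻¹ * ((c.out : G)⁻¹ * ((c.out : G) * r x)) * (n : U) := by group
          _ = (w * (c.out : G) * (n : U))⁻¹ * (w * r x * w⁻¹) * (w * (c.out : G) * (n : U)) := by
            rw [hc]; group
          _ = _ := by rw [hwx]
    rw [← Finset.sum_filter, himg, Finset.sum_const, nsmul_eq_mul,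
      ← Nat.card_eq_card_finite_toFinset, Nat.card_range_of_injective hψ]
    exact mul_div_cancel₀ _ (hidx x h0)

/-- The truncated invariant elements of a defect group live on classes with that defect. -/
theorem isSylowIn_of_coeff_ne_zero {H D : Subgroup G} {b s : MonoidAlgebra k G}
    (hb : IsBlockEl H b) (hD : IsDefEl p H b D) (hs : Supp (cen H D) s)
    (hsN : Inv (Subgroup.normalizer (D : Set G) ⊓ H) s)
    (hsa : s * cut (Subgroup.centralizer (D : Set G)) b = s) {x : G} (hx : s.coeff x ≠ 0) :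
    IsSylowIn p D (Subgroup.centralizer ({x} : Set G) ⊓ H) := by
  set N := Subgroup.normalizer (D : Set G) ⊓ H with hN
  set a := cut (Subgroup.centralizer (D : Set G)) b with ha_def
  have haN : Inv N a := (hb.cent.inv.mono inf_le_right).cut
    (inf_le_left.trans (normalizer_le_normalizer_centralizer D))
  by_contra hnot
  have hxm := hs x hx
  obtain ⟨R, hDR, hRL, hR, hRN, hxR⟩ := exists_gt_normalizing (x := x) hD.pGroup
    (le_inf (le_centralizer_singleton hxm.1) hD.le) hnot inf_le_left
  have hRH : R ≤ H := hRL.trans inf_le_right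
  have h0 : cut (Subgroup.centralizer (R : Set G)) b = 0 := by
    by_contra hne
    obtain ⟨h, -, hhD⟩ := hD.max R hRH hR hne
    have h1 := Subgroup.card_le_of_le hhD
    rw [card_cS] at h1
    exact hDR.ne (Subgroup.eq_of_le_of_card_ge hDR.le h1)
  have h2 := coeff_cut_of_mem s hxR
  rw [← hsa, cut_mul hR (hsN.mono (le_inf hRN hRH)) (haN.mono (le_inf hRN hRH)), ha_def,
    cut_cut_of_le hDR.le, h0, mul_zero, hsa] at h2
  exact hx (by simpa using h2.symm)

variable {P : Subgroup G} {b e : MonoidAlgebra k G} {Z : Subgroup G} {f : MonoidAlgebra k G}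

/-- Every central element at the maximal pair is the image of a trace in the local block. -/
theorem exists_lift (hS : Split k G) (h : Sub1 p b P e Z f) {g : MonoidAlgebra k G}
    (hg : IsCent (Subgroup.centralizer (P : Set G)) g) (hge : e * g = g) :
    ∃ z d, IsCent (Subgroup.centralizer (Z : Set G)) z ∧ f * z = z ∧
      cut (Subgroup.centralizer (P : Set G)) z * e = g ∧ Inv P d ∧
      trUp P (Subgroup.centralizer (Z : Set G)) d = z := by
  classical
  set C := Subgroup.centralizer (Z : Set G)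
  set CP := Subgroup.centralizer (P : Set G)
  set N := Subgroup.normalizer (P : Set G) ⊓ C with hN
  have hD := h.maxEl.isDefEl hS h.blockEl
  have hcen : cen C P = CP := inf_eq_left.2 h.centralizer_le
  have heC : IsBlockEl CP e := hcen ▸ h.maxEl.pair.block
  have hCN : CP ≤ N := le_inf (Subgroup.centralizer_le_normalizer _) h.centralizer_le
  have hNn : N ≤ Subgroup.normalizer (CP : Set G) :=
    inf_le_left.trans (normalizer_le_normalizer_centralizer P)
  -- only the centraliser fixes `e`
  have hfix : ∀ n ∈ N, cj n e = e → n ∈ CP := fun n hn hne =>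
    h.mem_cent n ⟨hn.1, hne⟩ hn.2
  let _ : Fintype (N ⧸ CP.subgroupOf N) := Fintype.ofFinite _
  set y := trUp CP N g with hy
  have hyN : Inv N y := inv_trUp hg.inv
  have hys : Supp CP y := by
    rw [hy, trUp]
    refine Supp.sum _ fun q _ => ?_
    have := hg.supp.cj (q.out : G)
    rwa [cS_eq_self (hNn q.out.2)] at this
  have hye : y * e = g := by
    rw [hy, trUp, Finset.sum_mul, Finset.sum_eq_single ((1 : N) : N ⧸ CP.subgroupOf N)]
    · have h1 : (((1 : N) : N ⧸ CP.subgroupOf N).out : G) ∈ CP := by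
        have := QuotientGroup.eq.1 (QuotientGroup.out_eq' ((1 : N) : N ⧸ CP.subgroupOf N)).symm
        simpa [Subgroup.mem_subgroupOf] using this
      rw [hg.inv _ h1, hg.comm heC.cent.supp, hge]
    · intro q _ hq
      have hne : cj (q.out : G) e ≠ e := fun he => hq (by
        conv_lhs => rw [← QuotientGroup.out_eq' q]
        refine QuotientGroup.eq.2 (Subgroup.mem_subgroupOf.2 ?_)
        simpa using inv_mem (hfix _ q.out.2 he))
      have hblk : IsBlockEl CP (cj (q.out : G) e) := by
        have := heC.cj (q.out : G)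
        rwa [cS_eq_self (hNn q.out.2)] at this
      rw [← hge, map_mul, mul_assoc, ← heC.cent.comm (by
          have := hg.supp.cj (q.out : G)
          rwa [cS_eq_self (hNn q.out.2)] at this), ← mul_assoc,
        (hblk.eq_or_mul_eq_zero heC).resolve_left hne, zero_mul]
    · exact fun hh => absurd (Finset.mem_univ _) hh
  set a := cut CP f with ha
  have haN : Inv N a := (h.blockEl.cent.inv.mono inf_le_right).cut hNn
  have hya : y * a = y := by
    rw [hy, ← trUp_mul_right CP _ haN]
    congr 1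
    have h1 : a * e = e := h.maxEl.below
    conv_lhs => rw [← hge, hg.comm (a := g) heC.cent.supp |>.symm]
    conv_rhs => rw [← hge, hg.comm (a := g) heC.cent.supp |>.symm]
    rw [mul_assoc, heC.cent.comm (supp_cut _ _), h1]
  obtain ⟨z₀, hz₀, hz₀y, hz₀D⟩ := exists_spread hD.le hD.pGroup (H := C) (D := P) (hcen ▸ hys) hyN
    fun x hx => isSylowIn_of_coeff_ne_zero h.blockEl hD (hcen ▸ hys) hyN hya hx
  obtain ⟨d, hd, hdz⟩ := exists_trUp_of_defect hD.le hz₀.inv hz₀D
  have hfP : Inv P f := h.blockEl.cent.inv.mono hD.le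
  refine ⟨z₀ * f, d * f, hz₀.mul h.blockEl.cent, ?_, ?_, hd.mul hfP, ?_⟩
  · rw [← mul_assoc, h.blockEl.cent.comm hz₀.supp, mul_assoc, h.blockEl.idem]
  · rw [cut_mul hD.pGroup (hz₀.inv.mono hD.le) hfP, hz₀y]
    show y * a * e = g
    rw [hya, hye]
  · rw [trUp_mul_right P d h.blockEl.cent.inv, hdz]

end Cfsg.Agent.H20.Cyclic
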