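import Cfsg.Agent.H22.CyclicSubpair
import Cfsg.Agent.H22.PairExtra

/-!
# The subgroup of order `p` below a maximal pair with cyclic group
-/

set_option autoImplicit false
set_option linter.unusedSectionVars false

namespace Cfsg.Agent.H20.Cyclic

open Cfsg.Agent.H22

variable {k : Type*} [Field k] {G : Type*} [Group G] [Finite G] {p : ℕ} [Fact p.Prime] [CharP k p]
  {P : Subgroup G} {b e : MonoidAlgebra k G}

/-- The data at the subgroup of order `p` of the cyclic group of a maximal pair. -/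
structure Sub1 (p : ℕ) (b : MonoidAlgebra k G) (P : Subgroup G) (e : MonoidAlgebra k G)
    (Z : Subgroup G) (f : MonoidAlgebra k G) : Prop where
  card_eq : Nat.card Z = p
  minimal : ∀ u ∈ P, u ≠ 1 → Z ≤ Subgroup.zpowers u
  nsub : NSub p ⊤ (Z, f) (P, e)
  blockEl : IsBlockEl (Subgroup.centralizer (Z : Set G)) f
  maxEl : IsMaxEl p (Subgroup.centralizer (Z : Set G)) f (P, e)
  nil : IsNilEl p (Subgroup.centralizer (Z : Set G)) f
  mem_stab : ∀ t ∈ pairStab P e, t ∈ pairStab Z f
  exists_mul : ∀ t ∈ pairStab Z f, ∃ y ∈ Subgroup.centralizer (Z : Set G), y * t ∈ pairStab P e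
  mem_cent : ∀ t ∈ pairStab P e, t ∈ Subgroup.centralizer (Z : Set G) →
    t ∈ Subgroup.centralizer (P : Set G)
  below : Below b (Z, f)

theorem exists_sub1 (hS : Split k G) (hb : IsBlockEl ⊤ b) (hm : IsMaxEl p ⊤ b (P, e))
    (hcyc : IsCyclic P) (hP1 : P ≠ ⊥) : ∃ Z f, Sub1 p b P e Z f := by
  have hPp : IsPGroup p P := hm.pair.pGroup
  obtain ⟨m, hcard⟩ := IsPGroup.iff_card.1 hPp
  have hm0 : m ≠ 0 := by
    rintro rfl
    exact hP1 (Subgroup.card_eq_one.1 (by simpa using hcard))
  obtain ⟨z, hz⟩ := exists_prime_orderOf_dvd_card' (G := P) p (hcard ▸ dvd_pow_self p hm0)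
  set Z : Subgroup G := Subgroup.zpowers (z : G) with hZ
  have hZP : Z ≤ P := Subgroup.zpowers_le.2 z.2
  have hZcard : Nat.card Z = p := by rw [hZ, Nat.card_zpowers, Subgroup.orderOf_coe, hz]
  have hZ1 : Z ≠ ⊥ := fun h => by
    rw [h, Subgroup.card_bot] at hZcard
    exact (Fact.out : p.Prime).ne_one hZcard.symm
  have hmin : ∀ u ∈ P, u ≠ 1 → Z ≤ Subgroup.zpowers u := by
    intro u hu hu1
    rcases le_or_le_of_cyclic hPp hcyc hZP (Subgroup.zpowers_le.2 hu) with h | h
    · exact h
    · have h1 := Subgroup.card_dvd_of_le h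
      rw [hZcard, Nat.dvd_prime Fact.out] at h1
      rcases h1 with h1 | h1
      · exact absurd (Subgroup.zpowers_eq_bot.1 (Subgroup.card_eq_one.1 h1)) hu1
      · exact (Subgroup.eq_of_le_of_card_ge h (h1.trans hZcard.symm).ge).ge.trans' le_rfl
  obtain ⟨f, hf, -⟩ := existsUnique_nsub hS hm.pair hZP
    ((le_centralizer_of_cyclic hcyc hZP).trans (Subgroup.centralizer_le_normalizer _))
  have hfC : IsBlockEl (Subgroup.centralizer (Z : Set G)) f := by simpa using hf.left.block
  exact ⟨Z, f, hZcard, hmin, hf, hfC, isMaxEl_centralizer hS hb hm hcyc hf,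
    isNilEl_centralizer hS hb hm hcyc hf hZ1, fun t ht => mem_pairStab_of_mem hS hb hm hcyc hf ht,
    fun t ht => exists_mul_mem_pairStab hS hb hm hcyc hf ht,
    fun t ht ht' => mem_centralizer_of_mem_stab hS hb hm hcyc hf hZ1 ht ht',
    (hf.below_iff hb).2 hm.below⟩

variable {Z : Subgroup G} {f : MonoidAlgebra k G}

namespace Sub1

variable (h : Sub1 p b P e Z f)
include h

theorem le : Z ≤ P := h.nsub.le

theorem ne_bot : Z ≠ ⊥ := fun h' => by
  have := h.card_eq
  rw [h', Subgroup.card_bot] at this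
  exact (Fact.out : p.Prime).ne_one this.symm

theorem pGroup : IsPGroup p Z := IsPGroup.of_card (n := 1) (by rw [h.card_eq, pow_one])

theorem le_centralizer : P ≤ Subgroup.centralizer (Z : Set G) := h.maxEl.pair.le

theorem centralizer_le : Subgroup.centralizer (P : Set G) ≤ Subgroup.centralizer (Z : Set G) :=
  Subgroup.centralizer_le (SetLike.coe_subset_coe.2 h.le)

theorem stab_le_normalizer : pairStab Z f ≤ Subgroup.normalizer (Z : Set G) := inf_le_left

theorem centralizer_le_stab : Subgroup.centralizer (Z : Set G) ≤ pairStab Z f :=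
  centralizer_le_pairStab h.blockEl

theorem stab_le_normalizer_centralizer :
    pairStab Z f ≤ Subgroup.normalizer ((Subgroup.centralizer (Z : Set G) : Subgroup G) : Set G) :=
  h.stab_le_normalizer.trans (normalizer_le_normalizer_centralizer Z)

/-- The stabilisers have the same inertial index. -/
theorem relIndex_eq : (Subgroup.centralizer (Z : Set G)).relIndex (pairStab Z f) =
    (Subgroup.centralizer (P : Set G)).relIndex (pairStab P e) := by
  set C := Subgroup.centralizer (Z : Set G)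
  set T := pairStab Z f
  set U := pairStab P e
  have hn : (C.subgroupOf T).Normal :=
    Subgroup.normal_subgroupOf_of_le_normalizer h.stab_le_normalizer_centralizer
  have hmem : ∀ t : U, (t : G) ∈ T := fun t => h.mem_stab t t.2
  let ι : U →* T := Subgroup.inclusion h.mem_stab
  let φ : U →* T ⧸ C.subgroupOf T := (QuotientGroup.mk' _).comp ι
  have hsurj : Function.Surjective φ := by
    intro q
    obtain ⟨t, rfl⟩ := QuotientGroup.mk_surjective q
    obtain ⟨y, hy, hyt⟩ := h.exists_mul t t.2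
    refine ⟨⟨y * t, hyt⟩, QuotientGroup.eq.2 (Subgroup.mem_subgroupOf.2 ?_)⟩
    show (y * (t : G))⁻¹ * (t : G) ∈ C
    have hconj := (Subgroup.mem_normalizer_iff.1
      (h.stab_le_normalizer_centralizer (inv_mem t.2)) y⁻¹).1 (inv_mem hy)
    simpa using hconj
  have hker : φ.ker = (Subgroup.centralizer (P : Set G)).subgroupOf U := by
    ext t
    rw [MonoidHom.mem_ker, Subgroup.mem_subgroupOf]
    show ((ι t : T) : T ⧸ C.subgroupOf T) = 1 ↔ _
    rw [QuotientGroup.eq_one_iff, Subgroup.mem_subgroupOf]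
    exact ⟨fun h1 => h.mem_cent t t.2 h1, fun h1 => h.centralizer_le h1⟩
  rw [Subgroup.relIndex, Subgroup.relIndex, ← hker, Subgroup.index_ker,
    MonoidHom.range_eq_top.2 hsurj, Subgroup.card_top, ← Subgroup.index_eq_card]

/-- Elements moving `P` into itself nontrivially normalise `Z`. -/
theorem ti {g : G} (hg : g ∉ Subgroup.normalizer (Z : Set G)) {u : G} (hu : u ∈ P)
    (hgu : g⁻¹ * u * g ∈ P) : u = 1 := by
  by_contra hu1
  have h1 : g⁻¹ * u * g ≠ 1 := fun he => hu1 (by
    have h2 := congrArg (fun a => g * a * g⁻¹) he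
    simpa [mul_assoc] using h2)
  have h2 := h.minimal u hu hu1
  have h3 := h.minimal _ hgu h1
  have hle : cS g⁻¹ Z ≤ Z := by
    -- both are the subgroup of order `p` of a cyclic group
    have h4 : cS g⁻¹ Z ≤ Subgroup.zpowers (g⁻¹ * u * g) := by
      rintro _ ⟨a, ha, rfl⟩
      obtain ⟨i, rfl⟩ := Subgroup.mem_zpowers_iff.1 (h2 ha)
      refine Subgroup.mem_zpowers_iff.2 ⟨i, ?_⟩
      show _ = g⁻¹ * u ^ i * g⁻¹⁻¹
      rw [inv_inv]
      simpa using (conj_zpow (a := g⁻¹) (b := u) (i := i))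
    have hcyc : IsCyclic (Subgroup.zpowers (g⁻¹ * u * g)) := inferInstance
    rcases le_or_le_of_cyclic (p := p) (h.maxEl.pair.pGroup.to_le (Subgroup.zpowers_le.2 hgu)) hcyc
      h4 h3 with h5 | h5
    · exact h5
    · exact (Subgroup.eq_of_le_of_card_ge h5 (card_cS _ _).le).ge
  exact hg (by
    simpa using inv_mem (mem_normalizer_of_cS (Subgroup.eq_of_le_of_card_ge hle (card_cS g⁻¹ Z).ge)))

theorem orth {g : G} (hg : g ∈ Subgroup.normalizer (Z : Set G)) (hgT : g ∉ pairStab Z f) :
    f * cj g f = 0 := by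
  have hblk : IsBlockEl (Subgroup.centralizer (Z : Set G)) (cj g f) := by
    have := h.blockEl.cj g
    rwa [cS_eq_self (normalizer_le_normalizer_centralizer Z hg)] at this
  exact (h.blockEl.eq_or_mul_eq_zero hblk).resolve_left fun he => hgT ⟨hg, he.symm⟩

/-- The automiser of `Z` is cyclic of order prime to `p`. -/
theorem exists_gen : ∃ t₀ ∈ pairStab Z f, ∀ t ∈ pairStab Z f,
    ∃ i : ℕ, t * (t₀ ^ i)⁻¹ ∈ Subgroup.centralizer (Z : Set G) := by
  set C := Subgroup.centralizer (Z : Set G)
  set T := pairStab Z f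
  have hn : (C.subgroupOf T).Normal :=
    Subgroup.normal_subgroupOf_of_le_normalizer h.stab_le_normalizer_centralizer
  let ι : T →* MulAut Z :=
    (Subgroup.normalizerMonoidHom Z).comp (Subgroup.inclusion h.stab_le_normalizer)
  have hι : ∀ t : T, ι t = 1 ↔ t ∈ C.subgroupOf T := fun t => by
    rw [← MonoidHom.mem_ker, ← MonoidHom.comap_ker, Subgroup.mem_comap,
      Subgroup.normalizerMonoidHom_ker, Subgroup.mem_subgroupOf, Subgroup.coe_inclusion,
      Subgroup.mem_subgroupOf]
  let κ : T ⧸ C.subgroupOf T →* MulAut Z := QuotientGroup.lift _ ι fun t ht => (hι t).2 ht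
  have hκ : Function.Injective κ := by
    rw [injective_iff_map_eq_one]
    intro q hq
    obtain ⟨t, rfl⟩ := QuotientGroup.mk'_surjective _ q
    exact (QuotientGroup.eq_one_iff t).2 ((hι t).1 hq)
  have : IsCyclic Z := isCyclic_of_prime_card h.card_eq
  have hA : IsCyclic (MulAut Z) := by
    have e := IsCyclic.mulAutMulEquiv Z
    rw [h.card_eq] at e
    exact isCyclic_of_injective e.toMonoidHom e.injective
  obtain ⟨q, hq⟩ := (isCyclic_of_injective κ hκ).exists_generator
  obtain ⟨t₀, rfl⟩ := QuotientGroup.mk_surjective q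
  refine ⟨t₀, t₀.2, fun t ht => ?_⟩
  obtain ⟨i, hi⟩ := (mem_powers_iff_mem_zpowers (x := (t₀ : T ⧸ C.subgroupOf T))).2
    (hq (⟨t, ht⟩ : T))
  refine ⟨i, ?_⟩
  have h1 : ((⟨t, ht⟩ * ((t₀ ^ i : T))⁻¹ : T) : T ⧸ C.subgroupOf T) = 1 := by
    rw [QuotientGroup.mk_mul, QuotientGroup.mk_inv, QuotientGroup.mk_pow, ← hi, mul_inv_cancel]
  simpa [Subgroup.mem_subgroupOf] using (QuotientGroup.eq_one_iff _).1 h1

theorem not_dvd_relIndex :
    ¬ p ∣ (Subgroup.centralizer (Z : Set G)).relIndex (pairStab Z f) := by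
  set C := Subgroup.centralizer (Z : Set G)
  set T := pairStab Z f
  have hn : (C.subgroupOf T).Normal :=
    Subgroup.normal_subgroupOf_of_le_normalizer h.stab_le_normalizer_centralizer
  let ι : T →* MulAut Z :=
    (Subgroup.normalizerMonoidHom Z).comp (Subgroup.inclusion h.stab_le_normalizer)
  have hι : ι.ker = C.subgroupOf T := by
    ext t
    rw [← MonoidHom.comap_ker, Subgroup.mem_comap,
      Subgroup.normalizerMonoidHom_ker, Subgroup.mem_subgroupOf, Subgroup.coe_inclusion,
      Subgroup.mem_subgroupOf]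
  have h1 := Subgroup.card_subgroup_dvd_card ι.range
  rw [← Subgroup.index_ker, hι] at h1
  have : IsCyclic Z := isCyclic_of_prime_card h.card_eq
  rw [IsCyclic.card_mulAut, h.card_eq, Nat.totient_prime Fact.out] at h1
  intro hd
  have h2 := Nat.le_of_dvd (by have := (Fact.out : p.Prime).two_le; omega) (hd.trans h1)
  have := (Fact.out : p.Prime).two_le
  omega

end Sub1

end Cfsg.Agent.H20.Cyclic
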