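import Cfsg.Agent.H20.Cyclic.Local.Centre
import Cfsg.Agent.H20.Cyclic.Above
import Cfsg.Agent.H20.Cyclic.MatUnits

/-!
# Matrix units of a block with one simple module and uniserial centre
-/

set_option autoImplicit false
set_option linter.unusedSectionVars false
set_option maxHeartbeats 800000

namespace Cfsg.Agent.H20.Cyclic

open Module Cfsg.Agent.H22
open Cfsg.Agent.H41 (ResField)
open Cfsg.Agent.H43.D1 (IsIrred)

section Transport

variable {k : Type*} [Field k] {H : Type*} [Group H] {V W : Type*} [AddCommGroup V] [Module k V]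
  [AddCommGroup W] [Module k W]

/-- A representation moved along a linear equivalence. -/
noncomputable def transp (ρ : H →* Module.End k V) (E : V ≃ₗ[k] W) : H →* Module.End k W :=
  (E.conjRingEquiv : Module.End k V →* Module.End k W).comp ρ

theorem transp_apply (ρ : H →* Module.End k V) (E : V ≃ₗ[k] W) (g : H) (w : W) :
    transp ρ E g w = E (ρ g (E.symm w)) := rfl

theorem isIrred_transp {ρ : H →* Module.End k V} (hρ : IsIrred ρ) (E : V ≃ₗ[k] W) :
    IsIrred (transp ρ E) := by
  have := hρ.1
  refine ⟨E.toEquiv.symm.nontrivial, fun U hU => ?_⟩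
  rcases hρ.2 (U.comap E.toLinearMap) (fun g v hv => by
    have h := hU g (E v) hv
    rw [transp_apply, E.symm_apply_apply] at h
    exact h) with h | h
  · left
    rw [eq_bot_iff]
    intro w hw
    have h1 : E.symm w ∈ U.comap E.toLinearMap := by
      show E (E.symm w) ∈ U
      rwa [E.apply_symm_apply]
    rw [h, Submodule.mem_bot] at h1
    rw [Submodule.mem_bot, ← E.apply_symm_apply w, h1, map_zero]
  · right
    rw [eq_top_iff]
    intro w _
    have h1 : E.symm w ∈ U.comap E.toLinearMap := h.symm ▸ Submodule.mem_top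
    simpa using h1

theorem act_transp [Finite H] (ρ : H →* Module.End k V) (E : V ≃ₗ[k] W) (a : MonoidAlgebra k H) :
    act (transp ρ E) a = E.conjRingEquiv (act ρ a) := by
  refine LinearMap.ext fun w => ?_
  have h := map_act (ρ := ρ) (σ := transp ρ E) E.toLinearMap (fun g v => by
    simp [transp_apply]) a (E.symm w)
  simpa using h.symm

end Transport

variable {H : Type*} [Group H] [Fintype H] {M : Ideal Cfsg.AlgInt} [M.IsMaximal] {p : ℕ}
  [Fact p.Prime] [CharP (ResField M) p] {bs : Set (Cfsg.IrrCharacter H)}

/-- In a block of rank one the simple modules are isomorphic. -/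
theorem exists_hom (hM : Cfsg.IsPModular p M) (hB : Cfsg.IsPBlock M bs)
    (h1 : Cfsg.blockRank p bs = 1) {V W : Type*} [AddCommGroup V] [Module (ResField M) V]
    [FiniteDimensional (ResField M) V] [AddCommGroup W] [Module (ResField M) W]
    [FiniteDimensional (ResField M) W] {ρ : H →* Module.End (ResField M) V}
    {σ : H →* Module.End (ResField M) W} (hρ : IsIrred ρ) (hσ : IsIrred σ)
    (hρB : act ρ (elTop M bs) = 1) (hσB : act σ (elTop M bs) = 1) :
    ∃ θ : V →ₗ[ResField M] W, θ ≠ 0 ∧ ∀ g v, θ (ρ g v) = σ g (θ v) := by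
  classical
  by_contra hne
  push Not at hne
  have := H43.D1.isAlgClosed_resField M
  let d : Bool → ℕ := fun i => cond i (finrank (ResField M) W) (finrank (ResField M) V)
  let EV := (Module.finBasis (ResField M) V).equivFun
  let EW := (Module.finBasis (ResField M) W).equivFun
  let R : ∀ i, H →* Module.End (ResField M) (Fin (d i) → ResField M) := fun
    | false => transp ρ EV
    | true => transp σ EW
  have hone : ∀ (f : V →ₗ[ResField M] W), (∀ g v, f (ρ g v) = σ g (f v)) → f = 0 := by
    intro f hf
    by_contra hf0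
    obtain ⟨g, v, hgv⟩ := hne f hf0
    exact hgv (hf g v)
  have h := card_le_blockRank (ι := Bool) hM hB (fun i => Fin (d i) → ResField M) R
    (fun i => by cases i <;> [exact isIrred_transp hρ EV; exact isIrred_transp hσ EW])
    (fun i => by
      cases i
      · show act (transp ρ EV) _ = 1
        rw [act_transp, hρB, map_one]
      · show act (transp σ EW) _ = 1
        rw [act_transp, hσB, map_one])
    (fun i j hij θ hθ => by
      match i, j, θ, hθ with
      | false, false, _, _ => exact absurd rfl hij
      | true, true, _, _ => exact absurd rfl hij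
      | false, true, θ, hθ =>
        have h0 := hone (EW.symm.toLinearMap ∘ₗ θ ∘ₗ EV.toLinearMap) fun g v => by
          have := hθ g (EV v)
          simp only [LinearMap.comp_apply, LinearEquiv.coe_coe]
          simp only [R, transp_apply, LinearEquiv.symm_apply_apply] at this
          rw [this, EW.symm_apply_apply]
        refine LinearMap.ext fun v => ?_
        have h2 := LinearMap.congr_fun h0 (EV.symm v)
        simp only [LinearMap.comp_apply, LinearEquiv.coe_coe, LinearEquiv.apply_symm_apply,
          LinearMap.zero_apply, LinearEquiv.map_eq_zero_iff] at h2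
        rw [h2, LinearMap.zero_apply]
      | true, false, θ, hθ =>
        by_contra hθ0
        have hb := H43.D1.bijective_of_irred (isIrred_transp hσ EW) (isIrred_transp hρ EV) θ hθ hθ0
        let θ' := LinearEquiv.ofBijective θ hb
        have h0 := hone (EW.symm.toLinearMap ∘ₗ θ'.symm.toLinearMap ∘ₗ EV.toLinearMap) fun g v => by
          simp only [LinearMap.comp_apply, LinearEquiv.coe_coe]
          apply EW.injective
          apply θ'.injective
          rw [LinearEquiv.apply_symm_apply, LinearEquiv.apply_symm_apply]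
          show _ = θ (EW _)
          have := hθ g (θ'.symm (EV v))
          simp only [R, transp_apply] at this
          rw [this, show θ (θ'.symm (EV v)) = EV v from θ'.apply_symm_apply _, EV.symm_apply_apply]
        have hnt := hρ.1
        obtain ⟨v, hv⟩ := exists_ne (0 : V)
        have h2 := LinearMap.congr_fun h0 v
        simp only [LinearMap.comp_apply, LinearEquiv.coe_coe, LinearMap.zero_apply,
          LinearEquiv.map_eq_zero_iff] at h2
        exact hv h2)
  rw [h1, Fintype.card_bool] at h
  omega

/-- The regular representation. -/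
noncomputable def regRep (k : Type*) [Field k] (H : Type*) [Group H] :
    H →* Module.End k (MonoidAlgebra k H) :=
  ((Algebra.lmul k (MonoidAlgebra k H)).toMonoidHom).comp (MonoidAlgebra.of k H)

theorem act_regRep {k : Type*} [Field k] (a b : MonoidAlgebra k H) :
    act (regRep k H) a b = a * b := by
  induction a using MonoidAlgebra.induction_on with
  | of g => simp [MonoidAlgebra.of_apply, regRep]
  | add a c ha hc => rw [map_add, LinearMap.add_apply, ha, hc, add_mul]
  | smul r a ha => rw [map_smul, LinearMap.smul_apply, ha, smul_mul_assoc]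

/-- A maximal invariant subspace. -/
theorem exists_maximal_invariant {k : Type*} [Field k] {V : Type*} [AddCommGroup V] [Module k V]
    [FiniteDimensional k V] (ρ : H →* Module.End k V) {A : Submodule k V} (hA0 : A ≠ ⊥) :
    ∃ B : Submodule k V, (∀ g, ∀ v ∈ B, ρ g v ∈ B) ∧ B < A ∧
      ∀ W : Submodule k V, (∀ g, ∀ v ∈ W, ρ g v ∈ W) → B ≤ W → W ≤ A → W = B ∨ W = A := by
  let S : Set (Submodule k V) := {B | (∀ g, ∀ v ∈ B, ρ g v ∈ B) ∧ B < A}
  have hbot : (⊥ : Submodule k V) ∈ S := ⟨fun g v hv => by
    rw [Submodule.mem_bot] at hv ⊢; rw [hv, map_zero], bot_lt_iff_ne_bot.2 hA0⟩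
  obtain ⟨B, ⟨hBinv, hBlt⟩, hBmax⟩ := (wellFounded_gt (α := Submodule k V)).has_min S ⟨⊥, hbot⟩
  refine ⟨B, hBinv, hBlt, fun W hW hBW hWA => ?_⟩
  rcases eq_or_lt_of_le hBW with h | h
  · exact Or.inl h.symm
  · exact Or.inr (by_contra fun hne => hBmax W ⟨hW, lt_of_le_of_ne hWA hne⟩ h)

/-- The local data of a block with one simple module and uniserial centre. -/
theorem exists_simple_units (hM : Cfsg.IsPModular p M) (hB : Cfsg.IsPBlock M bs)
    (h1 : Cfsg.blockRank p bs = 1) {q : ℕ} {π : MonoidAlgebra (ResField M) H}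
    (hπ : IsCent ⊤ π) (hεπ : elTop M bs * π = π) (hq : 1 < q) (hπq : π ^ q = 0)
    (hπne : π ^ (q - 1) ≠ 0)
    (hspan : ∀ a, IsCent ⊤ a → elTop M bs * a = a →
      ∃ c : ℕ → ResField M, a = ∑ l ∈ Finset.range q, c l • (π ^ l * elTop M bs)) :
    ∃ (A B : Submodule (ResField M) (MonoidAlgebra (ResField M) H))
      (ρ : H →* Module.End (ResField M) (A ⧸ B.comap A.subtype)),
      IsIrred ρ ∧ act ρ (elTop M bs) = 1 ∧ act ρ π = 0 ∧
      ∃ (n : ℕ) (u : Fin n → Fin n → MonoidAlgebra (ResField M) H),
        CornerUnits (k := ResField M) q (elTop M bs) π n u := by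
  classical
  have := H43.D1.isAlgClosed_resField M
  set k := ResField M
  set ε := elTop M bs with hε
  have hεb := isBlockEl_elTop hB
  have hεc : ∀ a, Commute ε a := fun a => hεb.cent.comm (fun x _ => Subgroup.mem_top x)
  have hπc : ∀ a, Commute π a := fun a => hπ.comm (fun x _ => Subgroup.mem_top x)
  have : FiniteDimensional k (MonoidAlgebra k H) :=
    Module.Finite.equiv (MonoidAlgebra.coeffLinearEquiv k).symm
  set R := regRep k H
  set A := LinearMap.range (act R ε) with hA
  have hAinv : ∀ g, ∀ v ∈ A, R g v ∈ A := by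
    rintro g _ ⟨v, rfl⟩
    exact ⟨R g v, (LinearMap.congr_fun (rho_mul_act_of_inv R hεb.cent.inv (Subgroup.mem_top g)) v).symm⟩
  have hA0 : A ≠ ⊥ := fun h0 => hεb.ne_zero (by
    have : ε * 1 ∈ A := ⟨1, act_regRep ε 1⟩
    rwa [h0, Submodule.mem_bot, mul_one] at this)
  obtain ⟨B, hBinv, hBlt, hBmax⟩ := exists_maximal_invariant R hA0
  set ρ := sectionRep R A B hAinv hBinv with hρdef
  have hρ : IsIrred ρ := isIrred_sectionRep R A B hAinv hBinv hBlt hBmax
  have hρε : act ρ ε = 1 := by
    refine LinearMap.ext fun x => ?_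
    obtain ⟨v, rfl⟩ := Submodule.Quotient.mk_surjective _ x
    rw [hρdef, act_sectionRep, Module.End.one_apply]
    congr 1
    obtain ⟨w, hw⟩ := v.2
    refine Subtype.ext ?_
    show act R ε (v : MonoidAlgebra k H) = v
    rw [← hw, ← Module.End.mul_apply, ← map_mul, hεb.idem]
  have := hρ.1
  have hsurj : Function.Surjective (act ρ) := by
    intro T
    have hT : T ∈ Submodule.span k (Set.range ρ) := by
      rw [H43.D1.span_range_eq_top hρ]; trivial
    have hle : Submodule.span k (Set.range ρ) ≤ LinearMap.range (act ρ).toLinearMap :=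
      Submodule.span_le.2 (by rintro _ ⟨g, rfl⟩; exact ⟨MonoidAlgebra.single g 1, by simp⟩)
    exact hle hT
  have hnil : ∀ a, ε * a = a → act ρ a = 0 → IsNilpotent a := by
    intro a haε ha0
    suffices hmain : ∀ (N : ℕ) (U : Submodule k (MonoidAlgebra k H)),
        finrank k U ≤ N → (∀ g, ∀ v ∈ U, R g v ∈ U) → ∀ v ∈ U, (act R a ^ N) v = 0 by
      refine ⟨finrank k (⊤ : Submodule k (MonoidAlgebra k H)), ?_⟩
      have h2 := hmain _ ⊤ le_rfl (fun _ _ _ => trivial) 1 trivial
      rwa [← map_pow, act_regRep, mul_one] at h2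
    intro N
    induction N with
    | zero =>
      intro U hU _ v hv
      rw [Submodule.finrank_eq_zero.1 (Nat.le_zero.1 hU), Submodule.mem_bot] at hv
      rw [hv, map_zero]
    | succ N ih =>
      intro U hUN hUinv v hv
      by_cases hU0 : U = ⊥
      · rw [hU0, Submodule.mem_bot] at hv
        rw [hv, map_zero]
      obtain ⟨U', hU'inv, hU'lt, hU'max⟩ := exists_maximal_invariant R hU0
      set σ := sectionRep R U U' hUinv hU'inv with hσdef
      have hσ : IsIrred σ := isIrred_sectionRep R U U' hUinv hU'inv hU'lt hU'max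
      have hσa : act σ a = 0 := by
        rcases hσ.2 (LinearMap.range (act σ ε)) (by
          rintro g _ ⟨x, rfl⟩
          exact ⟨σ g x, (LinearMap.congr_fun
            (rho_mul_act_of_inv σ hεb.cent.inv (Subgroup.mem_top g)) x).symm⟩) with h2 | h2
        · rw [← haε, map_mul, LinearMap.range_eq_bot.1 h2, zero_mul]
        · have hσε : act σ ε = 1 := by
            refine LinearMap.ext fun x => ?_
            obtain ⟨y, rfl⟩ : x ∈ LinearMap.range (act σ ε) := h2.symm ▸ Submodule.mem_top
            rw [← Module.End.mul_apply, ← map_mul, hεb.idem, Module.End.one_apply]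
          obtain ⟨θ, hθ0, hθ⟩ := exists_hom hM hB h1 hρ hσ hρε hσε
          have hbij := H43.D1.bijective_of_irred hρ hσ θ hθ hθ0
          refine LinearMap.ext fun x => ?_
          obtain ⟨y, rfl⟩ := hbij.2 x
          rw [← map_act θ hθ, ha0, LinearMap.zero_apply, map_zero, LinearMap.zero_apply]
      have hmem : act R a v ∈ U' := by
        have h2 := LinearMap.congr_fun hσa (Submodule.Quotient.mk ⟨v, hv⟩)
        rw [hσdef, act_sectionRep, LinearMap.zero_apply, Submodule.Quotient.mk_eq_zero] at h2
        exact h2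
      rw [pow_succ, Module.End.mul_apply]
      refine ih U' ?_ hU'inv _ hmem
      have := Submodule.finrank_lt_finrank_of_lt hU'lt
      omega
  let lam : MonoidAlgebra k H →ₗ[k] k :=
    (Finsupp.lapply (1 : H)).comp (MonoidAlgebra.coeffLinearEquiv k).toLinearMap
  have hlam : ∀ a, lam a = a.coeff 1 := fun a => rfl
  have hC : UniserialCorner q ε π (act ρ) lam :=
    { central := hεc
      idem := hεb.idem
      pi_central := hπc
      eps_pi := hεπ
      one_lt := hq
      pi_pow := hπq
      pi_pow_ne := hπne
      center := fun z hz hεz => by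
        refine hspan z ⟨fun x _ => Subgroup.mem_top x, fun g _ => ?_⟩ hεz
        rw [cj_eq, ← (hz (MonoidAlgebra.single g 1)).eq, mul_assoc, single_inv_mul, mul_one]
      map_eps := hρε
      surj := hsurj
      nil := hnil
      lam_comm := fun a b => by
        rw [hlam, hlam, H40.coeff_mul_eq_sum, H40.coeff_mul_eq_sum]
        exact Fintype.sum_equiv (Equiv.inv H) _ _ fun x => by simp [mul_comm]
      lam_nondeg := fun a ha => H40.ext_coeff fun g => by
        have h2 := ha (MonoidAlgebra.single g⁻¹ 1)
        rw [hlam, show (1 : H) = g * g⁻¹ by group, MonoidAlgebra.coeff_mul_single_mul, mul_one] at h2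
        rw [h2]; rfl }
  exact ⟨A, B, ρ, hρ, hρε, map_pi hC, exists_cornerUnits hC⟩

end Cfsg.Agent.H20.Cyclic
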